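import Cfsg.Agent.Golay.Witt
import Cfsg.Agent.Comp.Count

/-! Arcs and hyperovals of the projective plane of order 4 (`sysOf E l21`): `Arc`, `hyp_eq` (the 168 hyperovals),
`ncard_arc4`, `exists_unique_hyp`, `hyp_trans`, `card_stab_hyp`, `eq_one_of_fix_hyp`. -/

set_option autoImplicit false

namespace Cfsg.Agent.Golay

open Cfsg.Agent.Comp MulAction Finset
open scoped Pointwise

def lHyp : List ℕ := [797, 1319, 1594, 4536, 4773, 6018, 10787, 11289, 12036, 14470, 16601, 17348, 20833, 21574, 27840, 35041, 39492, 41666, 46400, 51256, 52738, 55680, 57606, 58401, 67881, 68148, 68622, 71825, 73751, 74506, 75056, 78984, 88136, 98760, 102512, 114961, 115212, 133540, 134275, 137244, 137985, 139418, 140960, 143650, 144389, 150112, 155715, 164165, 164440, 164962, 180865, 184356, 196749, 197520, 201256, 201746, 213076, 262896, 263370, 266325, 267080, 278836, 279081, 279571, 282764, 288778, 297228, 297489, 303154, 304648, 329924, 340034, 346880, 353284, 360485, 361730, 365184,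 395337, 402512, 411792, 426152, 430352, 459104, 479233, 524487, 525792, 528994, 529496, 538689, 540702, 541443, 542244, 545921, 551200, 559142, 560385, 565528, 565765, 569504, 598224, 609296, 614409, 623122, 623656, 658500, 664384, 677890, 680068, 688514, 693760, 720970, 786730, 787469, 788240, 790674, 796692, 854019, 860704, 929800, 984192, 1048974, 1049235, 1049769, 1052726, 1053969, 1054220, 1058992, 1063176, 1065546, 1066096, 1084488, 1089617, 1106056, 1117568, 1120770, 1122948, 1126433, 1139008, 1146950, 1168384, 1181738, 1183248, 1188116, 1188361, 1228818, 1245443, 1246244, 1310819, 1312068, 1321536, 1328768, 1331458, 1345666, 1355780, 1466400, 1475585, 1573193, 1573460, 1589648, 1593384, 1611792, 1640544, 1671297, 1736716, 1786368, 1835172, 1839617, 1968384]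

theorem okHyp : listOK 21 lHyp = true := by decide +kernel

/-- arc test. -/
def arcB (s : ℕ) : Bool := allL l21 fun r => Nat.ble (pc24 (Nat.land r s)) 2

variable {α : Type*} [Fintype α] [DecidableEq α] (E : Enc α 21)

theorem arc_iff (s : ℕ) : (∀ l ∈ sysOf E l21, (l ∩ E.ofMask s).card ≤ 2) ↔ arcB s = true := by
  have h (r : ℕ) (hr : r ∈ l21) : (E.ofMask r ∩ E.ofMask s).card = pc24 (Nat.land r s) := by
    rw [← E.ofMask_and, E.card_ofMask24 (by norm_num) (lt_of_le_of_lt Nat.and_le_left ((listOK_spec ok21).2 r hr))]; rfl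
  simp only [arcB, allL_iff, nble]
  exact ⟨fun H r hr => h r hr ▸ H _ ⟨r, hr, rfl⟩, by rintro H _ ⟨r, hr, rfl⟩; exact h r hr ▸ H r hr⟩

set_option maxRecDepth 100000 in
theorem ncard_arc4 : {S : Finset α | S.card = 4 ∧ ∀ l ∈ sysOf E l21, (l ∩ S).card ≤ 2}.ncard = 2520 :=
  (E.ncard_sub 4 fun s _ _ => arc_iff E s).trans (by decide +kernel)

set_option maxRecDepth 100000 in
theorem ncard_hyp : {S : Finset α | S.card = 6 ∧ ∀ l ∈ sysOf E l21, (l ∩ S).card ≤ 2}.ncard = 168 :=
  (E.ncard_sub 6 fun s _ _ => arc_iff E s).trans (by decide +kernel)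

set_option maxRecDepth 100000 in
theorem hyp_eq : {S : Finset α | S.card = 6 ∧ ∀ l ∈ sysOf E l21, (l ∩ S).card ≤ 2} = sysOf E lHyp := by
  refine (Set.eq_of_subset_of_ncard_le ?_ ?_ (Set.toFinite _)).symm
  · rintro _ ⟨r, hr, rfl⟩
    have h : allL lHyp (fun r => band (Nat.beq (pc24 r) 6) (arcB r)) = true := by decide +kernel
    have := allL_iff.1 h r hr
    rw [band_eq, Bool.and_eq_true, nbeq] at this
    exact ⟨by rw [E.card_ofMask24 (by norm_num) ((listOK_spec okHyp).2 r hr), this.1], (arc_iff E r).2 this.2⟩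
  · rw [ncard_hyp, ncard_sysOf E okHyp]; decide +kernel

set_option maxRecDepth 100000 in
theorem exists_unique_hyp {S : Finset α} (h4 : S.card = 4) (hS : ∀ l ∈ sysOf E l21, (l ∩ S).card ≤ 2) :
    ∃! H, H ∈ sysOf E lHyp ∧ S ⊆ H := by
  obtain ⟨s, hs, rfl, h⟩ := E.forall_sub (f := fun s => bor (not (arcB s))
    (Nat.beq (countL (fun r => Nat.beq (Nat.land s r) s) lHyp) 1)) (by decide +kernel) h4
  rw [(arc_iff E s).1 hS, bor_eq, Bool.not_true, Bool.false_or, nbeq,
    ← ncard_sysOf_filter E okHyp (p := fun H => E.ofMask s ⊆ H)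
      (pb := fun r => Nat.beq (Nat.land s r) s) fun r _ => (E.ofMask_subset_iff hs).trans nbeq.symm,
    Set.ncard_eq_one] at h
  obtain ⟨H, h⟩ := h
  exact ⟨H, (Set.ext_iff.1 h H).2 rfl, fun K hK => (Set.ext_iff.1 h K).1 hK⟩

theorem smul_hyp {g : Equiv.Perm α} (hg : g ∈ setSystemAut (sysOf E l21)) {H : Finset α} (hH : H ∈ sysOf E lHyp) :
    g • H ∈ sysOf E lHyp := by
  rw [← hyp_eq] at hH ⊢
  refine ⟨by rw [card_smul_finset, hH.1], fun l hl => ?_⟩
  rw [← card_smul_finset g⁻¹, smul_finset_inter, inv_smul_smul]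
  exact hH.2 _ (smul_mem_of_aut (inv_mem hg) hl)

set_option maxRecDepth 100000 in
theorem orbit_hyp0 : orbit (setSystemAut (sysOf E l21)) (E.ofMask 797) = sysOf E lHyp :=
  Keyed.orbit_eq_of_count (C := keyedMask E 5 31 _) (a := 797) (codes_a21 E) ⟨by norm_num, rfl⟩ (fun a => a % 100003) 200
    (Set.toFinite _) (ofMask_mem_sysOf E (by decide +kernel)) (fun _ hg _ => smul_hyp E hg)
    (by rw [ncard_sysOf E okHyp]; exact (by decide +kernel :
      lenL lHyp ≤ lenL (orbitL (imgP 21 5 31) (fun a => a % 100003) (fun _ => true) a21 200 797)))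

theorem hyp_trans {H : Finset α} (hH : H ∈ sysOf E lHyp) :
    ∃ g ∈ setSystemAut (sysOf E l21), H = g • E.ofMask 797 := by
  rw [← orbit_hyp0] at hH
  obtain ⟨g, rfl⟩ := hH
  exact ⟨g, g.2, rfl⟩

theorem card_stab_hyp {H : Finset α} (hH : H ∈ sysOf E lHyp) :
    Nat.card ↥(setSystemAut (sysOf E l21) ⊓ stabilizer (Equiv.Perm α) H) = 720 := by
  refine card_inf_stabilizer_of_orbit (a := 168) ?_ (by norm_num) (card_closure21 E).1
  rw [← orbit_hyp0] at hH
  rw [(orbit_eq_iff).2 hH, orbit_hyp0, ncard_sysOf E okHyp]; decide +kernel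

set_option maxRecDepth 100000 in
theorem eq_one_of_fix_hyp {H : Finset α} (hH : H ∈ sysOf E lHyp) {g : Equiv.Perm α}
    (hg : g ∈ setSystemAut (sysOf E l21)) (h : g ∈ fixF (Equiv.Perm α) H) : g = 1 := by
  obtain ⟨k, hk, rfl⟩ := hyp_trans E hH
  have h1 := (Subgroup.card_le_one_iff_eq_bot _).1 (card_aut_fix_le E (by norm_num) (steiner21 E) 797
    [(1, [2386, 36875]), (5, [8300, 655409]), (6, [2386, 8300]), (7, [33940, 82082]), (10, [33940, 36875]), (11, [2386]), (12, [36875, 29200]), (13, [8300]), (14, [29200]), (15, [33940]), (16, [67137]), (17, [148744]), (18, [269344]), (19, [526984]), (20, [])]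
    one_ne_zero (by decide +kernel))
  have h2 := conj_mem_fixF k⁻¹ h
  rw [inv_smul_smul] at h2
  have h3 : k⁻¹ * g * k⁻¹⁻¹ ∈ setSystemAut (sysOf E l21) ⊓ fixM E (Equiv.Perm α) 797 :=
    Subgroup.mem_inf.2 ⟨mul_mem (mul_mem (inv_mem hk) hg) (inv_mem (inv_mem hk)), fun a ha => h2 a (E.mem_ofMask.2 ha)⟩
  rw [h1, Subgroup.mem_bot] at h3
  exact conj_eq_one_iff.1 h3

end Cfsg.Agent.Golay
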